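import Cfsg.Agent.PCompl.Basic
import Cfsg.Agent.Constrained.PSolvable

/-!
`p`-complements in finite `p`-solvable groups: existence, dominance and conjugacy.
-/

set_option autoImplicit false

namespace CfsgLib.Constrained

open Cfsg CfsgLib.PCompl
open scoped Pointwise

universe u

private theorem exists_le_conj_aux {p : ℕ} [Fact p.Prime] (n : ℕ) : ∀ (G : Type u) [Group G] [Finite G],
    Nat.card G = n → IsPSolvable p G → ∀ H : Subgroup G, IsPCompl p H → ∀ U : Subgroup G,
    ¬ p ∣ Nat.card U → ∃ g : G, U ≤ MulAut.conj g • H := by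
  induction n using Nat.strong_induction_on with
  | _ n ih =>
  intro G _ _ hn hsolv H hH U hU
  have hp : p.Prime := Fact.out
  rcases subsingleton_or_nontrivial G with hG | hG
  · exact ⟨1, fun x _ => by rw [Subsingleton.elim x 1]; exact one_mem _⟩
  obtain ⟨M, hMn, hM, hMq⟩ : ∃ M : Subgroup G, M.Normal ∧ M ≠ ⊥ ∧
      (IsPGroup p M ∨ ¬ p ∣ Nat.card M) := by
    rcases IsPSolvable.core_ne_bot hsolv with h | h
    · exact ⟨pCore p G, inferInstance, h, Or.inl isPGroup_pCore⟩
    · exact ⟨pPrimeCore p G, inferInstance, h, Or.inr pPrimeCore_not_dvd⟩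
  set f := QuotientGroup.mk' M
  have hf : Function.Surjective f := QuotientGroup.mk'_surjective M
  obtain ⟨gq, hgq⟩ := ih _ (hn ▸ CfsgLib.Solvable.card_quotient_lt M hM) (G ⧸ M) rfl
    (IsPSolvable.quotient hsolv M) (H.map f) (hH.map hp f hf) (U.map f)
    (fun hd => hU (hd.trans (U.card_map_dvd f)))
  obtain ⟨g, rfl⟩ := hf gq
  rw [← CfsgLib.Solvable.map_conj_smul] at hgq
  have h2 : U ≤ MulAut.conj g • H ⊔ M := by
    have := Subgroup.comap_mono (f := f) hgq
    rw [Subgroup.comap_map_eq, Subgroup.comap_map_eq, QuotientGroup.ker_mk'] at this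
    exact le_sup_left.trans this
  rcases hMq with hMp | hMp
  · obtain ⟨k, hMcard⟩ := IsPGroup.iff_card.mp hMp
    haveI : Group.IsNilpotent M := hMp.isNilpotent
    set H' := MulAut.conj g • H with hH'
    have hH'c : ¬ p ∣ Nat.card H' := by
      rw [CfsgLib.Solvable.card_conj_smul]; exact hH.1
    set V := H' ⊓ (U ⊔ M) with hV
    have hVM : U ⊔ M = V ⊔ M := by
      apply le_antisymm _ (sup_le inf_le_right le_sup_right)
      intro x hx
      have hx' : x ∈ H' ⊔ M := sup_le h2 le_sup_right hx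
      rw [← SetLike.mem_coe, Subgroup.mul_normal] at hx'
      obtain ⟨y, hy, z, hz, rfl⟩ := Set.mem_mul.1 hx'
      refine Subgroup.mul_mem_sup ⟨hy, ?_⟩ hz
      have := mul_mem hx (inv_mem (Subgroup.mem_sup_right hz : z ∈ U ⊔ M))
      simpa using this
    have hVc : ¬ p ∣ Nat.card V := fun hd => hH'c (hd.trans (Subgroup.card_dvd_of_le inf_le_left))
    obtain ⟨m, -, hm⟩ := CfsgLib.Solvable.exists_conj_of_sup_eq M V U hVM.symm
      (hMcard ▸ coprime_of_not_dvd hp hVc) (hMcard ▸ coprime_of_not_dvd hp hU)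
      (Or.inl inferInstance)
    refine ⟨m * g, ?_⟩
    rw [map_mul, mul_smul, ← hm]
    exact Subgroup.pointwise_smul_le_pointwise_smul_iff.2 inf_le_left
  · have hMH : M ≤ H := le_of_normal hp hH M hMp
    refine ⟨g, h2.trans (sup_le le_rfl ?_)⟩
    rw [← CfsgLib.Solvable.conj_smul_le_of_mem_normal (N := M) g]
    exact Subgroup.pointwise_smul_le_pointwise_smul_iff.2 hMH

private theorem exists_isPCompl_aux {p : ℕ} [Fact p.Prime] (n : ℕ) : ∀ (G : Type u) [Group G] [Finite G],
    Nat.card G = n → IsPSolvable p G → ∃ H : Subgroup G, IsPCompl p H := by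
  induction n using Nat.strong_induction_on with
  | _ n ih =>
  intro G _ _ hn hsolv
  have hp : p.Prime := Fact.out
  rcases subsingleton_or_nontrivial G with hG | hG
  · exact ⟨⊤, by rw [Nat.card_unique]; exact hp.not_dvd_one, 0, by simp⟩
  obtain ⟨M, hMn, hM, hMq⟩ : ∃ M : Subgroup G, M.Normal ∧ M ≠ ⊥ ∧
      (IsPGroup p M ∨ ¬ p ∣ Nat.card M) := by
    rcases IsPSolvable.core_ne_bot hsolv with h | h
    · exact ⟨pCore p G, inferInstance, h, Or.inl isPGroup_pCore⟩
    · exact ⟨pPrimeCore p G, inferInstance, h, Or.inr pPrimeCore_not_dvd⟩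
  set f := QuotientGroup.mk' M
  have hf : Function.Surjective f := QuotientGroup.mk'_surjective M
  obtain ⟨Hq, hHq, j, hj⟩ := ih _ (hn ▸ CfsgLib.Solvable.card_quotient_lt M hM) (G ⧸ M) rfl
    (IsPSolvable.quotient hsolv M)
  set X := Hq.comap f with hX
  have hMX : M ≤ X := by
    intro m hm
    rw [hX, Subgroup.mem_comap, QuotientGroup.mk'_apply, (QuotientGroup.eq_one_iff m).mpr hm]
    exact one_mem _
  have hXi : X.index = p ^ j := by rw [hX, Subgroup.index_comap_of_surjective _ hf, hj]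
  have hXc : Nat.card X = Nat.card Hq * Nat.card M := by
    rw [← CfsgLib.Solvable.card_map_mk'_mul M hMX, hX, Subgroup.map_comap_eq_self_of_surjective hf]
  rcases hMq with hMp | hMp
  · obtain ⟨k, hMcard⟩ := IsPGroup.iff_card.mp hMp
    have hMXc : Nat.card (M.subgroupOf X) = p ^ k := by
      rw [Nat.card_congr (Subgroup.subgroupOfEquivOfLe hMX).toEquiv, hMcard]
    have hidx : (M.subgroupOf X).index = Nat.card Hq := by
      have := (M.subgroupOf X).card_mul_index
      rw [hMXc, hXc, hMcard, mul_comm] at this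
      exact mul_right_cancel₀ (pow_ne_zero k hp.ne_zero) this
    obtain ⟨K, hK⟩ := Subgroup.exists_right_complement'_of_coprime (N := M.subgroupOf X)
      (by rw [hMXc, hidx]; exact (coprime_of_not_dvd hp hHq).symm)
    have hKc : Nat.card K = Nat.card Hq := by rw [← hK.symm.index_eq_card, hidx]
    refine ⟨K.map X.subtype, ?_, j + k, ?_⟩
    · rwa [Nat.card_congr (Subgroup.equivMapOfInjective _ _ X.subtype_injective).symm.toEquiv, hKc]
    · rw [Subgroup.index_map_subtype, hXi, hK.index_eq_card, hMXc, pow_add, mul_comm]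
  · refine ⟨X, ?_, j, hXi⟩
    rw [hXc]
    exact fun hd => (hp.dvd_mul.mp hd).elim hHq hMp

variable {G : Type u} [Group G] [Finite G] {p : ℕ} [Fact p.Prime]

/-- Every `p'`-subgroup of a `p`-solvable group lies in a conjugate of any `p`-complement. -/
theorem IsPSolvable.exists_le_conj_pCompl (h : IsPSolvable p G) {H : Subgroup G} (hH : IsPCompl p H)
    {U : Subgroup G} (hU : ¬ p ∣ Nat.card U) : ∃ g : G, U ≤ MulAut.conj g • H :=
  exists_le_conj_aux _ G rfl h H hH U hU

/-- A `p`-solvable group has a `p`-complement. -/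
theorem IsPSolvable.exists_pCompl (h : IsPSolvable p G) : ∃ H : Subgroup G, IsPCompl p H :=
  exists_isPCompl_aux _ G rfl h

/-- The `p`-complements of a `p`-solvable group are conjugate. -/
theorem IsPSolvable.pCompl_conj (h : IsPSolvable p G) {H₁ H₂ : Subgroup G} (h₁ : IsPCompl p H₁)
    (h₂ : IsPCompl p H₂) : ∃ g : G, H₂ = MulAut.conj g • H₁ := by
  obtain ⟨g, hg⟩ := exists_le_conj_aux _ G rfl h H₁ h₁ H₂ h₂.1
  refine ⟨g, Subgroup.eq_of_le_of_card_ge hg ?_⟩
  rw [CfsgLib.Solvable.card_conj_smul]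
  obtain ⟨hc₁, k₁, hk₁⟩ := h₁
  obtain ⟨hc₂, k₂, hk₂⟩ := h₂
  have e₁ := H₁.card_mul_index
  have e₂ := H₂.card_mul_index
  rw [hk₁] at e₁
  rw [hk₂] at e₂
  have hd : Nat.card H₁ ∣ Nat.card H₂ :=
    (coprime_of_not_dvd Fact.out hc₁ (k := k₂)).dvd_of_dvd_mul_right ⟨p ^ k₁, e₂.trans e₁.symm⟩
  exact Nat.le_of_dvd Nat.card_pos hd

end CfsgLib.Constrained
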